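import Cfsg.Agent.Mult.Slices
import Cfsg.Agent.RuC.Tabs

set_option autoImplicit false
set_option Elab.async false
set_option maxRecDepth 100000
set_option linter.all false

namespace Cfsg.Agent.RuC
open Cfsg.Agent.CGT

open Cfsg.Agent.Mult

noncomputable def u3_D : PC := ⟨3, 3, 2, 19,
  [[0, 0x14, 0x10], [0, 0, 0x10], [0, 0, 0]],
  [3, 0, 0],
  [(3, 1, 0x19), (3, 4, 0x2a), (3, 0x10, 0x10)], 9, 0x101000200000002⟩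
noncomputable def u3_ds : List (List ℕ) := [[6, 8, 0, 0, 6, 0, 4, 3, 3, 8, 0, 6, 0, 4, 2, 8, 4, 0, 6, 8, 6, 4, 6, 8, 4, 6, 8, 6, 4, 6, 1, 3, 4, 0, 6], [3, 2, 2, 0, 6, 4, 0, 3, 0, 0, 8, 1, 4, 2, 1, 1, 8, 4, 6, 4, 1, 4, 3, 8, 6, 8, 4, 6, 8, 3, 4, 0], [4, 4, 6, 4, 0, 2, 1, 2, 6, 2, 1, 8, 4, 0, 8, 4, 0, 6, 0, 4, 8, 6, 4, 6, 1], [0, 4, 2, 8, 6, 4, 8, 6, 8, 2, 4, 0, 4, 6, 4, 8, 0, 8, 1, 8, 6, 4, 1, 1, 3, 8, 2, 4, 6, 8, 1, 8, 2, 1, 1]]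
noncomputable def u3_c : Mult.Cert := ⟨39, 17, [[], [], [1]],
  [],
  [[0x50, 0, 0x48], [0, 0x96, 0x36], [0, 0, 0xa2]]⟩

end Cfsg.Agent.RuC
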