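import Cfsg.Agent.Mult.Slices
import Cfsg.Agent.RuC.Mul3D

set_option autoImplicit false
set_option Elab.async false
set_option maxRecDepth 100000
set_option linter.all false

namespace Cfsg.Agent.RuC
open Cfsg.Agent.CGT

open Cfsg.Agent.Mult

set_option Elab.async false
theorem u3_all : allB u3_D u3_c [.assoc 8 4 1, .fus 3 [2, 0] [0, 2], .fus 3 [2, 1] [1, 2], .fus 3 [0, 0, 0] [], .fus 3 [1, 1, 1] []] 12 m_ts u3_ds [0, 28, 1264, 1225, 2304] [(11, [0x10, 4]), (0, [9])] = true := by decide +kernel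

end Cfsg.Agent.RuC
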